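import Mathlib
import Cfsg.Agent.Lib.Known3.UOrders

/-!
The centraliser of a fixed-point-free element of order three in a symplectic group.
-/

set_option autoImplicit false

namespace Cfsg.Agent.Lib.SpOrd3

open Matrix Cfsg.Agent.Lib.Classical Cfsg.Agent.Lib.KS2.IsoCl

variable {F L : Type*} [Field F] [Field L] [Algebra F L] {m : ℕ}

/-- The map `(A, B) ↦ A + ω B`. -/
noncomputable def tau (ω : L) (A B : Matrix (Fin m) (Fin m) F) : Matrix (Fin m) (Fin m) L :=
  (algebraMap F L).mapMatrix A + ω • (algebraMap F L).mapMatrix B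

lemma tau_mul {ω : L} (hω : ω * ω = -1 - ω) (A B C D : Matrix (Fin m) (Fin m) F) :
    tau ω A B * tau ω C D = tau ω (A * C - B * D) (A * D + B * C - B * D) := by
  simp only [tau, map_sub, map_add, map_mul]
  generalize (algebraMap F L).mapMatrix A = a
  generalize (algebraMap F L).mapMatrix B = b
  generalize (algebraMap F L).mapMatrix C = c
  generalize (algebraMap F L).mapMatrix D = d
  have h1 : (a + ω • b) * (c + ω • d) = a * c + ω • (a * d) + ω • (b * c) + (ω * ω) • (b * d) := by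
    simp only [add_mul, mul_add, smul_mul_assoc, mul_smul_comm, smul_smul, smul_add]
    abel
  rw [h1, hω]
  (module)

lemma tau_one (ω : L) : tau ω (1 : Matrix (Fin m) (Fin m) F) 0 = 1 := by
  simp [tau]

lemma tau_apply (ω : L) (A B : Matrix (Fin m) (Fin m) F) (i j : Fin m) :
    tau ω A B i j = algebraMap F L (A i j) + ω * algebraMap F L (B i j) := rfl

lemma tau_inj {ω : L} (hind : ∀ a b : F, algebraMap F L a + ω * algebraMap F L b = 0 → a = 0 ∧ b = 0)
    {A B C D : Matrix (Fin m) (Fin m) F} (h : tau ω A B = tau ω C D) : A = C ∧ B = D := by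
  have hij : ∀ i j, A i j = C i j ∧ B i j = D i j := by
    intro i j
    have h1 := congrFun (congrFun h i) j
    rw [tau_apply, tau_apply] at h1
    have h2 := hind (A i j - C i j) (B i j - D i j) (by
      rw [map_sub, map_sub]
      linear_combination h1)
    exact ⟨sub_eq_zero.1 h2.1, sub_eq_zero.1 h2.2⟩
  exact ⟨Matrix.ext fun i j => (hij i j).1, Matrix.ext fun i j => (hij i j).2⟩

lemma tau_surj {ω : L} (hrep : ∀ c : L, ∃ a b : F, c = algebraMap F L a + ω * algebraMap F L b)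
    (U : Matrix (Fin m) (Fin m) L) : ∃ A B : Matrix (Fin m) (Fin m) F, tau ω A B = U := by
  choose a b hab using hrep
  refine ⟨Matrix.of fun i j => a (U i j), Matrix.of fun i j => b (U i j), ?_⟩
  ext i j
  rw [tau_apply]
  exact (hab (U i j)).symm

section adj

variable [Fintype L] {q : ℕ}

lemma hadj_tau (hL : Fintype.card L = q ^ 2) {ω : L} (hfix : ∀ a : F, (algebraMap F L a) ^ q = algebraMap F L a)
    (hωq : ω ^ q = -1 - ω) (A B : Matrix (Fin m) (Fin m) F) :
    hAdj hL (tau ω A B) = tau ω (Aᵀ - Bᵀ) (-Bᵀ) := by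
  ext i j
  rw [hAdj_apply, tau_apply, tau_apply, pow_q_add hL, mul_pow, hωq, hfix, hfix]
  simp only [Matrix.sub_apply, Matrix.neg_apply, Matrix.transpose_apply, map_sub, map_neg]
  ring

/-- The two defining conditions. -/
def Cond (A B : Matrix (Fin m) (Fin m) F) : Prop := A * Aᵀ - A * Bᵀ + B * Bᵀ = 1 ∧ B * Aᵀ = A * Bᵀ

lemma unitary_iff (hL : Fintype.card L = q ^ 2) {ω : L} (hfix : ∀ a : F, (algebraMap F L a) ^ q = algebraMap F L a)
    (hωq : ω ^ q = -1 - ω) (hω : ω * ω = -1 - ω)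
    (hind : ∀ a b : F, algebraMap F L a + ω * algebraMap F L b = 0 → a = 0 ∧ b = 0) (A B : Matrix (Fin m) (Fin m) F) :
    tau ω A B * hAdj hL (tau ω A B) = 1 ↔ Cond A B := by
  rw [hadj_tau hL hfix hωq, tau_mul hω, ← tau_one (F := F) ω]
  constructor
  · intro h
    obtain ⟨h1, h2⟩ := tau_inj hind h
    constructor
    · rw [← h1]
      noncomm_ring
    · have h3 : B * Aᵀ - A * Bᵀ = 0 := by
        rw [← h2]
        noncomm_ring
      exact sub_eq_zero.1 h3
  · rintro ⟨h1, h2⟩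
    congr 1
    · rw [← h1]
      noncomm_ring
    · have h3 : A * (-Bᵀ) + B * (Aᵀ - Bᵀ) - B * (-Bᵀ) = B * Aᵀ - A * Bᵀ := by noncomm_ring
      rw [h3, h2, sub_self]

end adj

/-- The element of order three. -/
def x₀ (F : Type*) [Field F] (m : ℕ) : Matrix (Fin m ⊕ Fin m) (Fin m ⊕ Fin m) F :=
  fromBlocks 0 (-1) 1 (-1)

lemma x₀_mem : x₀ F m ∈ Matrix.symplecticGroup (Fin m) F := by
  rw [SymplecticGroup.mem_iff, x₀, Matrix.J, fromBlocks_transpose, fromBlocks_multiply, fromBlocks_multiply]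
  simp

/-- The block form of elements commuting with `x₀`. -/
def blk (A B : Matrix (Fin m) (Fin m) F) : Matrix (Fin m ⊕ Fin m) (Fin m ⊕ Fin m) F :=
  fromBlocks A (-B) B (A - B)

lemma blk_comm (A B : Matrix (Fin m) (Fin m) F) : blk A B * x₀ F m = x₀ F m * blk A B := by
  rw [blk, x₀, fromBlocks_multiply, fromBlocks_multiply]
  congr 1 <;> simp [sub_eq_add_neg, add_comm]

lemma eq_blk (g : Matrix (Fin m ⊕ Fin m) (Fin m ⊕ Fin m) F) (h : g * x₀ F m = x₀ F m * g) :
    g = blk g.toBlocks₁₁ g.toBlocks₂₁ := by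
  have h1 : g = fromBlocks g.toBlocks₁₁ g.toBlocks₁₂ g.toBlocks₂₁ g.toBlocks₂₂ := (fromBlocks_toBlocks g).symm
  set P := g.toBlocks₁₁
  set Q := g.toBlocks₁₂
  set R := g.toBlocks₂₁
  set S := g.toBlocks₂₂
  rw [h1, x₀, fromBlocks_multiply, fromBlocks_multiply, fromBlocks_inj] at h
  simp only [mul_zero, mul_one, add_zero, mul_neg, zero_mul, one_mul, zero_add, neg_mul] at h
  obtain ⟨h2, h3, h4, h5⟩ := h
  rw [h1, blk, fromBlocks_inj]
  refine ⟨rfl, ?_, rfl, ?_⟩
  · exact h2.trans rfl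
  · rw [h4, sub_eq_add_neg]

lemma blk_mem_iff (A B : Matrix (Fin m) (Fin m) F) :
    blk A B ∈ Matrix.symplecticGroup (Fin m) F ↔ Cond A B := by
  rw [SymplecticGroup.mem_iff, blk, Matrix.J, fromBlocks_transpose, fromBlocks_multiply, fromBlocks_multiply, fromBlocks_inj]
  simp only [mul_zero, mul_one, add_zero, mul_neg, zero_add, neg_mul, transpose_neg, transpose_sub]
  constructor
  · rintro ⟨e1, e2, -, -⟩
    constructor
    · have h : A * Aᵀ - A * Bᵀ + B * Bᵀ = -(-(B * Bᵀ) + -(A * (Aᵀ - Bᵀ))) := by noncomm_ring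
      rw [h, e2, neg_neg]
    · have h : B * Aᵀ - A * Bᵀ = -(-(B * Aᵀ) + - -(A * Bᵀ)) := by noncomm_ring
      exact sub_eq_zero.1 (by rw [h, e1, neg_zero])
  · rintro ⟨c1, c2⟩
    refine ⟨?_, ?_, ?_, ?_⟩
    · rw [c2, neg_neg]
      exact neg_add_cancel _
    · have h : -(B * Bᵀ) + -(A * (Aᵀ - Bᵀ)) = -(A * Aᵀ - A * Bᵀ + B * Bᵀ) := by noncomm_ring
      rw [h, c1]
    · have h : (A - B) * Aᵀ + - -(B * Bᵀ) = A * Aᵀ - B * Aᵀ + B * Bᵀ := by noncomm_ring
      rw [h, c2, c1]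
    · have h : (A - B) * Bᵀ + -(B * (Aᵀ - Bᵀ)) = A * Bᵀ - B * Aᵀ := by noncomm_ring
      rw [h, c2, sub_self]

lemma blk_inj {A B C D : Matrix (Fin m) (Fin m) F} (h : blk A B = blk C D) : A = C ∧ B = D := by
  rw [blk, blk, fromBlocks_inj] at h
  exact ⟨h.1, h.2.2.1⟩

/-- The element `x₀` in the symplectic group. -/
def x₁ (F : Type*) [Field F] (m : ℕ) : Matrix.symplecticGroup (Fin m) F := ⟨x₀ F m, x₀_mem⟩

/-- The set of admissible pairs. -/
def TT (F : Type*) [Field F] (m : ℕ) : Type _ := {p : Matrix (Fin m) (Fin m) F × Matrix (Fin m) (Fin m) F // Cond p.1 p.2}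

/-- Admissible pairs give elements of the centraliser. -/
def toCent (p : TT F m) : ↥(Subgroup.centralizer ({x₁ F m} : Set ↥(Matrix.symplecticGroup (Fin m) F))) :=
  ⟨⟨blk p.1.1 p.1.2, (blk_mem_iff _ _).2 p.2⟩, by
    rw [Subgroup.mem_centralizer_iff]
    intro h hh
    rw [Set.mem_singleton_iff] at hh
    subst hh
    apply Subtype.ext
    exact (blk_comm p.1.1 p.1.2).symm⟩

lemma toCent_bij : Function.Bijective (toCent : TT F m → _) := by
  constructor
  · rintro ⟨⟨A, B⟩, h1⟩ ⟨⟨C, D⟩, h2⟩ h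
    have h3 := congrArg (fun g : ↥(Subgroup.centralizer ({x₁ F m} : Set ↥(Matrix.symplecticGroup (Fin m) F))) => ((g : ↥(Matrix.symplecticGroup (Fin m) F)) : Matrix (Fin m ⊕ Fin m) (Fin m ⊕ Fin m) F)) h
    obtain ⟨h4, h5⟩ := blk_inj h3
    subst h4 h5
    rfl
  · rintro ⟨⟨g, hg⟩, hc⟩
    rw [Subgroup.mem_centralizer_iff] at hc
    have h1 := hc (x₁ F m) rfl
    have h2 : g * x₀ F m = x₀ F m * g := (congrArg Subtype.val h1).symm
    have h3 := eq_blk g h2
    have h4 : Cond g.toBlocks₁₁ g.toBlocks₂₁ := by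
      rw [← blk_mem_iff, ← h3]
      exact hg
    refine ⟨⟨(g.toBlocks₁₁, g.toBlocks₂₁), h4⟩, ?_⟩
    apply Subtype.ext
    apply Subtype.ext
    exact h3.symm

section toGU

variable [Fintype L] {q : ℕ} (hL : Fintype.card L = q ^ 2) {ω : L} (hfix : ∀ a : F, (algebraMap F L a) ^ q = algebraMap F L a)
    (hωq : ω ^ q = -1 - ω) (hω : ω * ω = -1 - ω)
    (hind : ∀ a b : F, algebraMap F L a + ω * algebraMap F L b = 0 → a = 0 ∧ b = 0)
    (hrep : ∀ c : L, ∃ a b : F, c = algebraMap F L a + ω * algebraMap F L b)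

include hfix hωq hω hind in
lemma adj_tau_mul {A B : Matrix (Fin m) (Fin m) F} (h : Cond A B) : hAdj hL (tau ω A B) * tau ω A B = 1 :=
  mul_eq_one_comm.mp ((unitary_iff hL hfix hωq hω hind A B).2 h)

/-- Admissible pairs give unitary matrices. -/
noncomputable def toGU (p : TT F m) : ↥(Cfsg.GU m L q) :=
  Cfsg.Agent.Lib.Known3.UOrders.mkU hL (tau ω p.1.1 p.1.2) (adj_tau_mul hL hfix hωq hω hind p.2)

include hrep in
lemma toGU_bij : Function.Bijective (toGU hL hfix hωq hω hind : TT F m → _) := by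
  constructor
  · rintro ⟨⟨A, B⟩, h1⟩ ⟨⟨C, D⟩, h2⟩ h
    have h3 : tau ω A B = tau ω C D := congrArg (fun g => Cfsg.Agent.Lib.Known3.UOrders.um g) h
    obtain ⟨h4, h5⟩ := tau_inj hind h3
    subst h4 h5
    rfl
  · intro g
    obtain ⟨A, B, hAB⟩ := tau_surj hrep (Cfsg.Agent.Lib.Known3.UOrders.um g)
    have h1 := Cfsg.Agent.Lib.Known3.UOrders.hAdj_um hL g
    have h2 : Cond A B := by
      rw [← unitary_iff hL hfix hωq hω hind, hAB]
      exact mul_eq_one_comm.mp h1
    refine ⟨⟨(A, B), h2⟩, ?_⟩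
    apply Cfsg.Agent.Lib.Known3.UOrders.um_ext
    exact hAB

include hL hfix hωq hω hind hrep in
/-- The centraliser has the order of the unitary group. -/
theorem card_cent_eq : Nat.card ↥(Subgroup.centralizer ({x₁ F m} : Set ↥(Matrix.symplecticGroup (Fin m) F))) = Nat.card ↥(Cfsg.GU m L q) := by
  have e1 := Equiv.ofBijective _ (toCent_bij (F := F) (m := m))
  have e2 := Equiv.ofBijective _ (toGU_bij (m := m) hL hfix hωq hω hind hrep)
  exact Nat.card_congr (e1.symm.trans e2)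

end toGU

end Cfsg.Agent.Lib.SpOrd3
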